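import Mathlib

/-! Every square matrix over a field is similar to its transpose. -/
set_option autoImplicit false

namespace CfsgLib.Similar
open Polynomial Module DirectSum

universe u v
variable {K : Type u} [Field K]

theorem exists_functional {p : K[X]} (hp : Irreducible p) (e : ℕ) :
    ∃ lam : (K[X] ⧸ K[X] ∙ p ^ e) →ₗ[K] K, ∀ x, x ≠ 0 → ∃ y, lam (x * y) ≠ 0 := by
  rcases e with - | e
  · refine ⟨0, fun x hx => absurd ?_ hx⟩
    obtain ⟨a, rfl⟩ := Submodule.Quotient.mk_surjective _ x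
    rw [Submodule.Quotient.mk_eq_zero, pow_zero]
    exact Submodule.mem_span_singleton.2 ⟨a, by simp⟩
  have hs : (Submodule.Quotient.mk (p ^ e) : K[X] ⧸ K[X] ∙ p ^ (e + 1)) ≠ 0 := by
    rw [ne_eq, Submodule.Quotient.mk_eq_zero, Submodule.mem_span_singleton]
    rintro ⟨c, hc⟩
    rw [smul_eq_mul, pow_succ] at hc
    have hd : p ^ e * (c * p) = p ^ e * 1 := by linear_combination hc
    exact hp.not_isUnit (IsUnit.mul_iff.1 (mul_left_cancel₀ (pow_ne_zero e hp.ne_zero) hd ▸ isUnit_one)).2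
  obtain ⟨f, hf⟩ : ∃ f : (K[X] ⧸ K[X] ∙ p ^ (e + 1)) →ₗ[K] K, f (Submodule.Quotient.mk (p ^ e)) ≠ 0 := by
    by_contra h
    push_neg at h
    exact hs ((Module.forall_dual_apply_eq_zero_iff K _).1 h)
  refine ⟨f, fun x hx => ?_⟩
  obtain ⟨a, rfl⟩ := Submodule.Quotient.mk_surjective _ x
  have ha : ¬ p ^ (e + 1) ∣ a := fun hd => hx (by
    rw [Submodule.Quotient.mk_eq_zero]; exact Submodule.mem_span_singleton.2 ⟨_, (mul_comm _ _).trans hd.choose_spec.symm⟩)
  classical
  obtain ⟨i, hi, hgcd⟩ := (dvd_prime_pow hp.prime (e + 1)).1 (EuclideanDomain.gcd_dvd_right a (p ^ (e + 1)))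
  have hie : i ≤ e := by
    rcases Nat.lt_or_ge e i with h | h
    · exact absurd ((hgcd.symm.dvd.trans (EuclideanDomain.gcd_dvd_left a _))) (by rwa [show i = e + 1 by omega])
    · exact h
  obtain ⟨u, v, huv⟩ : ∃ u v : K[X], EuclideanDomain.gcd a (p ^ (e + 1)) = a * u + p ^ (e + 1) * v :=
    ⟨_, _, EuclideanDomain.gcd_eq_gcd_ab a _⟩
  obtain ⟨w, hw⟩ : EuclideanDomain.gcd a (p ^ (e + 1)) ∣ p ^ e := hgcd.dvd.trans (pow_dvd_pow p hie)
  refine ⟨Ideal.Quotient.mk _ (u * w), ?_⟩
  show f (Ideal.Quotient.mk _ a * Ideal.Quotient.mk _ (u * w)) ≠ 0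
  rw [← map_mul]
  have : (Ideal.Quotient.mk (K[X] ∙ p ^ (e + 1)) (a * (u * w))) = Submodule.Quotient.mk (p ^ e) := by
    refine (Ideal.Quotient.eq).2 (Submodule.mem_span_singleton.2 ⟨-(v * w), ?_⟩)
    rw [smul_eq_mul, hw, huv]; ring
  rw [this]
  exact hf

theorem exists_selfadjoint {V : Type v} [AddCommGroup V] [Module K V] [FiniteDimensional K V] (φ : Module.End K V) :
    ∃ B : LinearMap.BilinForm K V, (∀ x, x ≠ 0 → ∃ y, B x y ≠ 0) ∧ ∀ x y, B (φ x) y = B x (φ y) := by
  classical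
  haveI : Module.Finite K (AEval' φ) := Module.Finite.equiv (AEval'.of φ)
  haveI : Module.Finite K[X] (AEval' φ) := Module.Finite.of_restrictScalars_finite K K[X] (AEval' φ)
  have htor : Module.IsTorsion K[X] (AEval' φ) := by
    intro x
    refine ⟨⟨φ.charpoly, mem_nonZeroDivisors_of_ne_zero φ.charpoly_monic.ne_zero⟩, ?_⟩
    obtain ⟨m, rfl⟩ := (AEval'.of φ).surjective x
    show φ.charpoly • AEval.of K V φ m = 0
    rw [← AEval.of_aeval_smul, LinearMap.aeval_self_charpoly, zero_smul, map_zero]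
  obtain ⟨ι, _, p, hp, e, ⟨E⟩⟩ := Module.equiv_directSum_of_isTorsion htor
  choose lam hlam using fun i => exists_functional (hp i) (e i)
  let L : V →ₗ[K] ⨁ i, K[X] ⧸ K[X] ∙ p i ^ e i := (E.toLinearMap.restrictScalars K) ∘ₗ (AEval'.of φ).toLinearMap
  let c : ∀ i, V →ₗ[K] K[X] ⧸ K[X] ∙ p i ^ e i := fun i => ((DirectSum.component K[X] ι _ i).restrictScalars K) ∘ₗ L
  refine ⟨LinearMap.mk₂ K (fun x y => ∑ i, lam i (c i x * c i y)) ?_ ?_ ?_ ?_, fun x hx => ?_, fun x y => ?_⟩
  · intro a b y; simp only [map_add, add_mul, Finset.sum_add_distrib]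
  · intro r a y; simp only [map_smul, smul_mul_assoc, Finset.smul_sum]
  · intro a b y; simp only [map_add, mul_add, Finset.sum_add_distrib]
  · intro r a y; simp only [map_smul, mul_smul_comm, Finset.smul_sum]
  · have hx' : L x ≠ 0 := fun h => hx ((AEval'.of φ).map_eq_zero_iff.1 (E.map_eq_zero_iff.1 h))
    obtain ⟨i, hi⟩ : ∃ i, L x i ≠ 0 := by
      by_contra h
      push_neg at h
      exact hx' (DFinsupp.ext h)
    obtain ⟨y, hy⟩ := hlam i _ hi
    refine ⟨(AEval'.of φ).symm (E.symm (DirectSum.of _ i y)), ?_⟩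
    show ∑ j, _ ≠ 0
    have hL : L ((AEval'.of φ).symm (E.symm (DirectSum.of _ i y))) = DirectSum.of _ i y := by simp [L]
    rw [Finset.sum_eq_single i (fun j _ hj => by
      show lam j (c j x * L _ j) = 0
      rw [hL, DirectSum.of_eq_of_ne _ _ _ hj, mul_zero, map_zero]) (fun h => absurd (Finset.mem_univ i) h)]
    show lam i (L x i * L _ i) ≠ 0
    rwa [hL, DirectSum.of_eq_same]
  · show ∑ i, lam i (c i (φ x) * c i y) = ∑ i, lam i (c i x * c i (φ y))
    have hX : ∀ i z, c i (φ z) = (X : K[X]) • c i z := fun i z => by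
      show DirectSum.component K[X] ι _ i (E (AEval.of K V φ (φ z))) = _
      have h := AEval.X_smul_of (R := K) (a := φ) z
      rw [show AEval.of K V φ (φ z) = (X : K[X]) • AEval.of K V φ z from h.symm, map_smul, map_smul]
      rfl
    refine Finset.sum_congr rfl fun i _ => ?_
    rw [hX, hX, smul_mul_assoc, mul_smul_comm]

theorem exists_transpose {ι : Type v} [Fintype ι] [DecidableEq ι] (A : Matrix ι ι K) :
    ∃ P : Matrix ι ι K, IsUnit P ∧ P * A = A.transpose * P := by
  obtain ⟨B, hB, hs⟩ := exists_selfadjoint (Matrix.toLin' A)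
  refine ⟨(LinearMap.BilinForm.toMatrix (Pi.basisFun K ι) B).transpose, ?_, ?_⟩
  · rw [Matrix.isUnit_iff_isUnit_det, Matrix.det_transpose, isUnit_iff_ne_zero]
    intro h0
    obtain ⟨v, hv, hvv⟩ := Matrix.exists_vecMul_eq_zero_iff.2 h0
    obtain ⟨y, hy⟩ := hB v hv
    apply hy
    have hz : B v = 0 := by
      refine (Pi.basisFun K ι).ext fun j => ?_
      have := congrFun hvv j
      simp only [Matrix.vecMul, dotProduct, LinearMap.BilinForm.toMatrix_apply, Pi.zero_apply] at this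
      conv_lhs => rw [← (Pi.basisFun K ι).sum_repr v]
      simpa using this
    rw [hz]; rfl
  · set M := LinearMap.BilinForm.toMatrix (Pi.basisFun K ι) B with hM
    have key : A.transpose * M = M * A := by
      have h1 := LinearMap.BilinForm.toMatrix_compLeft (b := Pi.basisFun K ι) B (Matrix.toLin' A)
      have h2 := LinearMap.BilinForm.toMatrix_compRight (b := Pi.basisFun K ι) B (Matrix.toLin' A)
      have h3 : LinearMap.toMatrix (Pi.basisFun K ι) (Pi.basisFun K ι) (Matrix.toLin' A) = A := by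
        rw [LinearMap.toMatrix_eq_toMatrix']
        exact LinearMap.toMatrix'_toLin' A
      rw [h3] at h1 h2
      rw [← h1, ← h2]
      congr 1
      exact LinearMap.ext₂ fun x y => hs x y
    have := congrArg Matrix.transpose key
    rwa [Matrix.transpose_mul, Matrix.transpose_mul, Matrix.transpose_transpose] at this

end CfsgLib.Similar
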